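import Cfsg.Agent.H520.CcpCfg

/-!
# Commuting perfect subgroups exchanged by `α` (helper689, for S4114)

* `swap_false` : `K₁`, `K₂` commuting subgroups exchanged by `α`, `K₁ K₂ ≠ G`, `K₁` perfect ⇒ `K₁ = 1`.
-/

set_option autoImplicit false
set_option linter.unusedSectionVars false

namespace Cfsg.Agent.H689.Ccp

open Subgroup Cfsg.Agent.H520
open scoped commutatorElement

theorem cM_conj {G : Type*} [Group G] [Finite G] {α : MulAut G} {E : Subgroup G} (hE : ∀ m ∈ E, α m ∈ E) {g n : G}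
    (hg : g ∈ E) (hn : n ∈ cM α E) : g * n * g⁻¹ ∈ cM α E := by
  have hN := cG_normal (resA α E hE)
  rw [← map_cG_resA α E hE] at hn ⊢
  obtain ⟨m, hm, rfl⟩ := hn
  exact ⟨⟨g, hg⟩ * m * ⟨g, hg⟩⁻¹, hN.conj_mem m hm ⟨g, hg⟩, rfl⟩

theorem perfect_solvable {G : Type*} [Group G] {K N : Subgroup G} (hKN : K ≤ N) (hN : Group.IsSolvable N)
    (hK : K ≤ ⁅K, K⁆) : K = ⊥ := by
  by_contra hne
  have h1 : K.subgroupOf N ≠ ⊥ := by
    intro h1
    apply hne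
    rw [eq_bot_iff]
    intro k hk
    have h2 : (⟨k, hKN hk⟩ : N) ∈ K.subgroupOf N := hk
    rw [h1, mem_bot] at h2
    exact congrArg Subtype.val h2
  have h2 := Group.IsSolvable.commutator_lt_of_ne_bot h1
  have h3 : (⁅K.subgroupOf N, K.subgroupOf N⁆).map N.subtype = ⁅K, K⁆ := by
    rw [map_commutator, subgroupOf_map_subtype, inf_eq_left.2 hKN]
  apply h2.not_ge
  intro x hx
  have h4 : (x : G) ∈ (⁅K.subgroupOf N, K.subgroupOf N⁆).map N.subtype := by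
    rw [h3]
    exact hK hx
  obtain ⟨y, hy, e⟩ := h4
  have : y = x := Subtype.ext e
  rwa [← this]

theorem swap_false {G : Type*} [Group G] [Finite G] {α : MulAut G} (h : Cfg α) {K₁ K₂ : Subgroup G}
    (h12 : ∀ k ∈ K₁, ∀ l ∈ K₂, k * l = l * k) (hα1 : ∀ k ∈ K₁, α k ∈ K₂) (hα2 : ∀ k ∈ K₂, α k ∈ K₁)
    (hne : K₁ ⊔ K₂ ≠ ⊤) (hperf : K₁ ≤ ⁅K₁, K₁⁆) : K₁ = ⊥ := by
  set E := K₁ ⊔ K₂ with hEdef
  have hE : ∀ m ∈ E, α m ∈ E := by
    have h1 : E ≤ E.comap (α : MulAut G).toMonoidHom := by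
      rw [hEdef]
      refine sup_le ?_ ?_
      · intro k hk
        exact (le_sup_right : K₂ ≤ K₁ ⊔ K₂) (hα1 k hk)
      · intro k hk
        exact (le_sup_left : K₁ ≤ K₁ ⊔ K₂) (hα2 k hk)
    exact fun m hm => h1 hm
  have hs := h.min E hne hE
  have hle : ⁅K₁, K₁⁆ ≤ cM α E := by
    rw [commutator_le]
    intro k hk l hl
    have hk' : k ∈ E := (le_sup_left : K₁ ≤ K₁ ⊔ K₂) hk
    have hl' : l ∈ E := (le_sup_left : K₁ ≤ K₁ ⊔ K₂) hl
    -- `m = l α(l⁻¹)`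
    have h1 : l * α l⁻¹ ∈ cM α E := by
      have := mem_cM α (inv_mem hl')
      rwa [inv_inv] at this
    have h2 := mul_mem (cM_conj hE hk' h1) (inv_mem h1)
    have h3 : k⁻¹ * α l⁻¹ = α l⁻¹ * k⁻¹ := h12 _ (inv_mem hk) _ (hα1 _ (inv_mem hl))
    have e : k * (l * α l⁻¹) * k⁻¹ * (l * α l⁻¹)⁻¹ = ⁅k, l⁆ := by
      rw [commutatorElement_def]
      calc k * (l * α l⁻¹) * k⁻¹ * (l * α l⁻¹)⁻¹ = k * l * (α l⁻¹ * k⁻¹) * (α l⁻¹)⁻¹ * l⁻¹ := by group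
        _ = k * l * k⁻¹ * l⁻¹ := by rw [← h3]; group
    rwa [e] at h2
  exact perfect_solvable (hperf.trans hle) hs hperf

end Cfsg.Agent.H689.Ccp
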